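import Mathlib
import Cfsg.Prelude.Def_LocalEven
import Cfsg.Agent.Eq.Def_LocalEven

/-!
No element acts quadratically when it has a conjugate (or conjugate inverse) `b` such that `a * b`
is a `p`-element while `a * b⁻¹` is not.
-/

set_option autoImplicit false

open scoped Pointwise commutatorElement

namespace CfsgLib.Quadratic44

/-- `x` has a conjugate of itself or of its inverse whose product with it is a `p`-element, the
other product not being one. -/
def Obstructed (p : ℕ) {Y : Type*} [Group Y] (x : Y) : Prop :=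
  ∃ (g : Y) (k : ℕ), ∃ b : Y, (b = g * x * g⁻¹ ∨ b = g * x⁻¹ * g⁻¹) ∧
    (x * b) ^ p ^ k = 1 ∧ ∀ j, (x * b⁻¹) ^ p ^ j ≠ 1

theorem conj_pow_eq {Y : Type*} [Group Y] (h y : Y) (n : ℕ) :
    (h * y * h⁻¹) ^ n = h * y ^ n * h⁻¹ := by
  induction n with
  | zero => simp
  | succ n ih => rw [pow_succ, pow_succ, ih]; group

theorem Obstructed.conj {p : ℕ} {Y : Type*} [Group Y] {x : Y} (h : Obstructed p x) (c : Y) :
    Obstructed p (c * x * c⁻¹) := by
  obtain ⟨g, k, b, hb, h1, h2⟩ := h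
  refine ⟨c * g * c⁻¹, k, c * b * c⁻¹, ?_, ?_, fun j hj => h2 j ?_⟩
  · rcases hb with rfl | rfl
    · exact Or.inl (by group)
    · exact Or.inr (by group)
  · rw [show c * x * c⁻¹ * (c * b * c⁻¹) = c * (x * b) * c⁻¹ by group, conj_pow_eq, h1]
    group
  · rw [show c * x * c⁻¹ * (c * b * c⁻¹)⁻¹ = c * (x * b⁻¹) * c⁻¹ by group, conj_pow_eq] at hj
    calc (x * b⁻¹) ^ p ^ j = c⁻¹ * (c * (x * b⁻¹) ^ p ^ j * c⁻¹) * c := by group
      _ = 1 := by rw [hj]; group

theorem Obstructed.inv {p : ℕ} {Y : Type*} [Group Y] {x : Y} (h : Obstructed p x) :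
    Obstructed p x⁻¹ := by
  obtain ⟨g, k, b, hb, h1, h2⟩ := h
  refine ⟨g, k, b⁻¹, ?_, ?_, fun j hj => h2 j ?_⟩
  · rcases hb with rfl | rfl
    · exact Or.inl (by group)
    · exact Or.inr (by group)
  · rw [show x⁻¹ * b⁻¹ = x⁻¹ * (x * b)⁻¹ * x⁻¹⁻¹ by group, conj_pow_eq, inv_pow, h1]
    group
  · rw [show x⁻¹ * b⁻¹⁻¹ = x⁻¹ * (x * b⁻¹)⁻¹ * x⁻¹⁻¹ by group, conj_pow_eq, inv_pow] at hj
    have : ((x * b⁻¹) ^ p ^ j)⁻¹ = 1 := by
      calc ((x * b⁻¹) ^ p ^ j)⁻¹ = x * (x⁻¹ * ((x * b⁻¹) ^ p ^ j)⁻¹ * x⁻¹⁻¹) * x⁻¹ := by group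
        _ = 1 := by rw [hj]; group
    exact inv_eq_one.mp this

section Ring

variable {R : Type*} [Ring R] {X : Type*} [Group X] (f : X →* R)

theorem map_inv_of_sq_zero {a : X} (ha : (f a - 1) * (f a - 1) = 0) : f a⁻¹ = 2 - f a := by
  have h : f a * (2 - f a) = 1 := by
    have : f a * (2 - f a) = 1 - (f a - 1) * (f a - 1) := by (rw [← one_add_one_eq_two]; noncomm_ring)
    rw [this, ha, sub_zero]
  calc f a⁻¹ = f a⁻¹ * (f a * (2 - f a)) := by rw [h, mul_one]
    _ = 2 - f a := by rw [← mul_assoc, ← map_mul, inv_mul_cancel, map_one, one_mul]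

theorem sq_zero_inv {a : X} (ha : (f a - 1) * (f a - 1) = 0) : (f a⁻¹ - 1) * (f a⁻¹ - 1) = 0 := by
  rw [map_inv_of_sq_zero f ha]
  calc (2 - f a - 1) * (2 - f a - 1) = (f a - 1) * (f a - 1) := by (rw [← one_add_one_eq_two]; noncomm_ring)
    _ = 0 := ha

theorem sq_zero_conj {a : X} (ha : (f a - 1) * (f a - 1) = 0) (g : X) :
    (f (g * a * g⁻¹) - 1) * (f (g * a * g⁻¹) - 1) = 0 := by
  have h1 : f g * f g⁻¹ = 1 := by rw [← map_mul, mul_inv_cancel, map_one]
  have h2 : f g⁻¹ * f g = 1 := by rw [← map_mul, inv_mul_cancel, map_one]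
  have e : f (g * a * g⁻¹) - 1 = f g * (f a - 1) * f g⁻¹ := by
    rw [map_mul, map_mul, mul_sub, sub_mul, mul_one, h1]
  calc (f (g * a * g⁻¹) - 1) * (f (g * a * g⁻¹) - 1)
      = f g * (f a - 1) * ((f g⁻¹ * f g) * ((f a - 1) * f g⁻¹)) := by rw [e]; simp only [mul_assoc]
    _ = f g * ((f a - 1) * (f a - 1)) * f g⁻¹ := by rw [h2, one_mul]; simp only [mul_assoc]
    _ = 0 := by rw [ha, mul_zero, zero_mul]

variable {p : ℕ} (hp : p.Prime) (hpR : (p : R) = 0)

include hp hpR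

theorem sub_one_pow {x : R} (k : ℕ) : (x - 1) ^ p ^ k = x ^ p ^ k - 1 := by
  obtain ⟨r, hr⟩ := (Commute.one_right (x - 1)).exists_add_pow_prime_pow_eq hp k
  rw [sub_add_cancel, hpR, zero_mul, zero_mul, zero_mul, add_zero, one_pow] at hr
  rw [hr, add_sub_cancel_right]

theorem pow_p_of_sq_zero {a : X} (ha : (f a - 1) * (f a - 1) = 0) : f (a ^ p) = 1 := by
  have h := sub_one_pow (x := f a) hp hpR 1
  rw [pow_one] at h
  rw [map_pow, ← sub_eq_zero, ← h, ← Nat.sub_add_cancel hp.two_le, pow_add, pow_two, ha, mul_zero]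

theorem pow_of_pair {a b : X} (ha : (f a - 1) * (f a - 1) = 0) (hb : (f b - 1) * (f b - 1) = 0)
    {k : ℕ} (h : f ((a * b) ^ p ^ k) = 1) : f ((a * b⁻¹) ^ p ^ (k + 1)) = 1 := by
  have ha' := map_inv_of_sq_zero f ha
  have hb' := map_inv_of_sq_zero f hb
  obtain ⟨A, hA⟩ : ∃ A, f a = 1 + A := ⟨f a - 1, by abel⟩
  obtain ⟨B, hB⟩ : ∃ B, f b = 1 + B := ⟨f b - 1, by abel⟩
  rw [hA, add_sub_cancel_left] at ha
  rw [hB, add_sub_cancel_left] at hb
  have hai : f a⁻¹ = 1 - A := by rw [ha', hA]; (rw [← one_add_one_eq_two]; noncomm_ring)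
  have hbi : f b⁻¹ = 1 - B := by rw [hb', hB]; (rw [← one_add_one_eq_two]; noncomm_ring)
  set N : R := A * B + B * A with hN
  set c : R := f (a * b) with hc
  set d : R := f (a * b⁻¹) with hd
  have hc1 : c * f ((a * b)⁻¹) = 1 := by rw [hc, ← map_mul, mul_inv_cancel, map_one]
  have hd1 : d * f ((a * b⁻¹)⁻¹) = 1 := by rw [hd, ← map_mul, mul_inv_cancel, map_one]
  have hcN : (c - 1) * (c - 1) = c * N := by
    have e : c + f ((a * b)⁻¹) = 2 + N := by
      rw [hc, mul_inv_rev, map_mul, map_mul, hA, hB, hai, hbi, hN]; (rw [← one_add_one_eq_two]; noncomm_ring)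
    have e' : N = c + f ((a * b)⁻¹) - 2 := by rw [e]; abel
    calc (c - 1) * (c - 1) = c * (c + f ((a * b)⁻¹) - 2) - (c * f ((a * b)⁻¹) - 1) := by
          (rw [← one_add_one_eq_two]; noncomm_ring)
      _ = c * N := by rw [hc1, sub_self, sub_zero, ← e']
  have hdN : (d - 1) * (d - 1) = -(d * N) := by
    have e : d + f ((a * b⁻¹)⁻¹) = 2 - N := by
      rw [hd, mul_inv_rev, inv_inv, map_mul, map_mul, hA, hB, hai, hbi, hN]; (rw [← one_add_one_eq_two]; noncomm_ring)
    have e' : N = 2 - (d + f ((a * b⁻¹)⁻¹)) := by rw [e]; abel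
    calc (d - 1) * (d - 1) = -(d * (2 - (d + f ((a * b⁻¹)⁻¹)))) - (d * f ((a * b⁻¹)⁻¹) - 1) := by
          (rw [← one_add_one_eq_two]; noncomm_ring)
      _ = -(d * N) := by rw [hd1, sub_self, sub_zero, ← e']
  have cA : Commute N A := by
    show N * A = A * N
    rw [hN, add_mul, mul_add, mul_assoc B A A, ha, mul_zero, ← mul_assoc A A B, ha, zero_mul,
      mul_assoc]
    abel
  have cB : Commute N B := by
    show N * B = B * N
    rw [hN, add_mul, mul_add, mul_assoc A B B, hb, mul_zero, ← mul_assoc B B A, hb, zero_mul,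
      mul_assoc]
    abel
  have cc : Commute c N := by
    rw [hc, map_mul, hA, hB]
    exact (((Commute.one_right N).add_right cA).mul_right ((Commute.one_right N).add_right cB)).symm
  have cd : Commute d N := by
    rw [hd, map_mul, hA, hbi]
    exact (((Commute.one_right N).add_right cA).mul_right ((Commute.one_right N).sub_right cB)).symm
  have hNn : N ^ p ^ k = 0 := by
    have h1 : (c - 1) ^ p ^ k = 0 := by
      rw [sub_one_pow hp hpR, hc, ← map_pow, h, sub_self]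
    have h2 : (c * N) ^ p ^ k = 0 := by
      rw [← hcN, (Commute.refl (c - 1)).mul_pow, h1, zero_mul]
    rwa [cc.mul_pow, hc, ← map_pow, h, one_mul] at h2
  have h3 : (d - 1) ^ (2 * p ^ k) = 0 := by
    rw [pow_mul, pow_two, hdN, neg_pow, cd.mul_pow, hNn, mul_zero, mul_zero]
  have h4 : (d - 1) ^ p ^ (k + 1) = 0 := by
    refine pow_eq_zero_of_le ?_ h3
    rw [pow_succ, mul_comm (p ^ k)]
    exact Nat.mul_le_mul_right _ hp.two_le
  rw [sub_one_pow hp hpR, hd, ← map_pow, sub_eq_zero] at h4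
  exact h4

end Ring

/-- A quadratic element of `H` centralizes `V` if all elements of order `p` of `H/C_H(V)` are obstructed. -/
theorem mem_centralizer_of_quadratic {G : Type*} [Group G] {p : ℕ} [hp : Fact p.Prime] (V H : Subgroup G)
    (hV : Cfsg.IsElementaryAbelian p V) (hHV : H ≤ Subgroup.normalizer (V : Set G))
    [((Subgroup.centralizer (V : Set G)).subgroupOf H).Normal] {Y : Type*} [Group Y]
    (e : ↥H ⧸ (Subgroup.centralizer (V : Set G)).subgroupOf H ≃* Y)
    (hY : ∀ y : Y, y ^ p = 1 → y ≠ 1 → Obstructed p y) {a : G} (haH : a ∈ H)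
    (ha : ∀ v ∈ V, ⁅⁅v, a⁆, a⁆ = 1) : a ∈ Subgroup.centralizer (V : Set G) := by
  classical
  letI : CommGroup V := { (inferInstance : Group V) with mul_comm := hV.1.is_comm.comm }
  let ρ : H →* AddMonoid.End (Additive V) :=
    MonoidHom.mk (OneHom.mk
      (fun y => AddMonoidHom.mk' (fun x => Additive.ofMul ((Subgroup.normalizerMonoidHom V).comp
        (Subgroup.inclusion hHV) y (Additive.toMul x))) (fun x x' => by
          simp only [toMul_add, map_mul, ofMul_mul]))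
      (by refine AddMonoidHom.ext fun x => ?_; simp only [map_one]; rfl))
      (fun y y' => by refine AddMonoidHom.ext fun x => ?_; simp only [map_mul]; rfl)
  have hρ : ∀ (y : H) (v : Additive V),
      ((Additive.toMul (ρ y v) : V) : G) = y * (Additive.toMul v : V) * (y : G)⁻¹ := fun _ _ => rfl
  have hC : ∀ y : H, ρ y = 1 ↔ (y : G) ∈ Subgroup.centralizer (V : Set G) := by
    intro y
    rw [Subgroup.mem_centralizer_iff]
    constructor
    · intro h v hv
      have := congrArg (fun x => ((Additive.toMul x : V) : G))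
        (DFunLike.congr_fun h (Additive.ofMul ⟨v, hv⟩))
      simp only [hρ, toMul_ofMul] at this
      exact (mul_inv_eq_iff_eq_mul.1 this).symm
    · intro h
      refine DFunLike.ext (F := AddMonoid.End (Additive V)) _ _ fun v => Additive.toMul.injective (Subtype.ext ?_)
      rw [hρ]
      show _ = ((Additive.toMul v : V) : G)
      rw [← h _ (Additive.toMul v : V).2, mul_inv_cancel_right]
  set π := e.toMonoidHom.comp (QuotientGroup.mk' ((Subgroup.centralizer (V : Set G)).subgroupOf H)) with hπ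
  have hker : ∀ y : H, ρ y = 1 → π y = 1 := fun y hy => by
    simp [hπ, (QuotientGroup.eq_one_iff y).2 (Subgroup.mem_subgroupOf.2 ((hC y).1 hy))]
  have hker' : ∀ y : H, π y = 1 → ρ y = 1 := fun y hy => (hC y).2 (Subgroup.mem_subgroupOf.1
    ((QuotientGroup.eq_one_iff y).1 (by simpa [hπ] using hy)))
  set a₀ : H := ⟨a, haH⟩
  have hA : (ρ a₀ - 1) * (ρ a₀ - 1) = 0 := by
    refine DFunLike.ext (F := AddMonoid.End (Additive V)) _ _ fun v => ?_
    show ρ a₀ (ρ a₀ v - v) - (ρ a₀ v - v) = 0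
    rw [sub_eq_zero]
    apply Additive.toMul.injective
    apply Subtype.ext
    rw [hρ]
    set w : G := (Additive.toMul v : V).1 with hw
    have hwc : ((Additive.toMul (ρ a₀ v - v) : V) : G) = (⁅w, (a₀ : G)⁆)⁻¹ := by
      rw [toMul_sub, div_eq_mul_inv, Subgroup.coe_mul, Subgroup.coe_inv, hρ, ← hw, commutatorElement_def]
      group
    rw [hwc]
    have h1 := commutatorElement_eq_one_iff_mul_comm.mp (ha w (Additive.toMul v : V).2)
    calc (a₀ : G) * (⁅w, (a₀ : G)⁆)⁻¹ * (a₀ : G)⁻¹ = ((a₀ : G) * ⁅w, (a₀ : G)⁆ * (a₀ : G)⁻¹)⁻¹ := by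
          simp [mul_assoc]
      _ = _ := by rw [← h1, mul_inv_cancel_right]
  have hpR : ((p : ℕ) : AddMonoid.End (Additive V)) = 0 := by
    refine DFunLike.ext (F := AddMonoid.End (Additive V)) _ _ fun v => ?_
    rw [AddMonoid.End.natCast_apply]
    apply Additive.toMul.injective
    exact Subtype.ext (by simpa using hV.2 (Additive.toMul v : V) (Additive.toMul v : V).2)
  by_contra hne
  have hy1 : π a₀ ≠ 1 := fun h => hne ((hC a₀).1 (hker' _ h))
  have hyp : π a₀ ^ p = 1 := by rw [← map_pow]; exact hker _ (pow_p_of_sq_zero ρ hp.out hpR hA)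
  obtain ⟨g, k, b, hb, h1, h2⟩ := hY _ hyp hy1
  have hsurj : Function.Surjective π := by
    rw [hπ]; exact e.surjective.comp (QuotientGroup.mk'_surjective _)
  obtain ⟨h, rfl⟩ := hsurj g
  obtain ⟨b₀, hB, rfl⟩ : ∃ b₀ : H, (ρ b₀ - 1) * (ρ b₀ - 1) = 0 ∧ π b₀ = b := by
    rcases hb with rfl | rfl
    · exact ⟨h * a₀ * h⁻¹, sq_zero_conj ρ hA h, by simp⟩
    · exact ⟨h * a₀⁻¹ * h⁻¹, sq_zero_conj ρ (sq_zero_inv ρ hA) h, by simp⟩
  refine h2 (k + 1) ?_
  rw [← map_inv, ← map_mul, ← map_pow]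
  refine hker _ (pow_of_pair ρ hp.out hpR hA hB ?_)
  exact hker' _ (by rw [map_pow, map_mul]; exact h1)

end CfsgLib.Quadratic44
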