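import Cfsg.Agent.Quadratic44.Basic

/-!
Elements of order `p` of `PSL(2, F)`, `F` of odd characteristic `p`, are obstructed.
-/

set_option autoImplicit false

open Matrix

namespace CfsgLib.Quadratic44

variable {F : Type*} [Field F] {p : ℕ} [Fact p.Prime] [CharP F p]

theorem center_sl_two {M : SpecialLinearGroup (Fin 2) F} (h : M ∈ Subgroup.center (SpecialLinearGroup (Fin 2) F)) :
    M = 1 ∨ M = -1 := by
  obtain ⟨r, hr, hM⟩ := Matrix.SpecialLinearGroup.mem_center_iff.mp h
  rw [Fintype.card_fin, sq, mul_self_eq_one_iff] at hr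
  rcases hr with rfl | rfl
  · exact Or.inl (Subtype.ext (by rw [← hM]; simp))
  · exact Or.inr (Subtype.ext (by rw [← hM]; simp [← Matrix.diagonal_neg]))

theorem neg_one_mem_center : (-1 : SpecialLinearGroup (Fin 2) F) ∈ Subgroup.center (SpecialLinearGroup (Fin 2) F) :=
  Subgroup.mem_center_iff.mpr fun g => by apply Subtype.ext; simp

/-- A unipotent matrix has trace `2`. -/
theorem trace_two_of_pow {M : Matrix (Fin 2) (Fin 2) F} {j : ℕ} (h : M ^ p ^ j = 1) :
    M 0 0 + M 1 1 = 2 := by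
  have hpR : ((p : ℕ) : Matrix (Fin 2) (Fin 2) F) = 0 := CharP.cast_eq_zero _ _
  have hn : IsNilpotent (M - 1) :=
    ⟨p ^ j, by rw [sub_one_pow (Fact.out : p.Prime) hpR, h, sub_self]⟩
  have := (Matrix.isNilpotent_trace_of_isNilpotent hn).eq_zero
  rw [trace_sub, trace_one, trace_fin_two, Fintype.card_fin, Nat.cast_ofNat, sub_eq_zero] at this
  exact this

theorem exists_conj_upper {M : SpecialLinearGroup (Fin 2) F} (ht : M.1 0 0 + M.1 1 1 = 2) :
    ∃ (c : SpecialLinearGroup (Fin 2) F) (t : F), (c * M * c⁻¹).1 = !![1, t; 0, 1] := by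
  have hdet : M.1 0 0 * M.1 1 1 - M.1 0 1 * M.1 1 0 = 1 := by rw [← det_fin_two, M.2]
  by_cases h : M.1 1 0 = 0
  · have h00 : M.1 0 0 = 1 := by
      have : (M.1 0 0 - 1) * (M.1 0 0 - 1) = 0 := by
        linear_combination (M.1 0 0) * ht - hdet - (M.1 0 1) * h
      exact sub_eq_zero.mp (mul_self_eq_zero.mp this)
    have h11 : M.1 1 1 = 1 := by linear_combination ht - h00
    refine ⟨1, M.1 0 1, ?_⟩
    rw [one_mul, inv_one, mul_one]
    ext i j
    fin_cases i <;> fin_cases j <;> simp [h00, h11, h]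
  · set γ := M.1 1 0 with hγ
    obtain ⟨s, hsγ⟩ : ∃ s, s * γ = 1 - M.1 0 0 := ⟨_, div_mul_cancel₀ _ h⟩
    set c : SpecialLinearGroup (Fin 2) F := ⟨!![0, 1; -1, -s], by simp [det_fin_two]⟩ with hc
    set u : SpecialLinearGroup (Fin 2) F := ⟨!![1, -γ; 0, 1], by simp [det_fin_two]⟩ with hu
    have hcu : c * M * c⁻¹ = u := by
      rw [mul_inv_eq_iff_eq_mul]
      apply Subtype.ext
      show c.1 * M.1 = u.1 * c.1
      simp only [hc, hu]
      ext i j
      fin_cases i <;> fin_cases j <;> simp [Matrix.mul_apply, Fin.sum_univ_two, ← hγ]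
      · linear_combination ht - hsγ
      · linear_combination -hsγ
      · apply mul_left_cancel₀ h
        linear_combination hdet + (1 - M.1 1 1) * hsγ - ht
    exact ⟨c, -γ, by rw [hcu]⟩

theorem obstructed_upper (hp : p ≠ 2) {u : SpecialLinearGroup (Fin 2) F} {t : F} (ht : t ≠ 0)
    (hu : u.1 = !![1, t; 0, 1]) :
    Obstructed p (u : ProjectiveSpecialLinearGroup (Fin 2) F) := by
  have h2 : (2 : F) ≠ 0 := Ring.two_ne_zero (by rw [ringChar.eq F p]; exact hp)
  set g : SpecialLinearGroup (Fin 2) F := ⟨!![0, t / 2; -(2 / t), 0], by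
    simp [det_fin_two]; field_simp⟩ with hg
  set l : SpecialLinearGroup (Fin 2) F := ⟨!![1, 0; -(4 / t), 1], by simp [det_fin_two]⟩ with hl
  have hgl : g * u * g⁻¹ = l := by
    rw [mul_inv_eq_iff_eq_mul]
    apply Subtype.ext
    show g.1 * u.1 = l.1 * g.1
    simp only [hg, hl, hu]
    ext i j
    fin_cases i <;> fin_cases j <;> simp [Matrix.mul_apply, Fin.sum_univ_two]
    field_simp
    ring
  have hodd : Odd p := (Fact.out : p.Prime).odd_of_ne_two hp
  have hpR : ((p : ℕ) : Matrix (Fin 2) (Fin 2) F) = 0 := CharP.cast_eq_zero _ _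
  refine ⟨(g : ProjectiveSpecialLinearGroup (Fin 2) F), 1,
    (l : ProjectiveSpecialLinearGroup (Fin 2) F), Or.inl ?_, ?_, ?_⟩
  · rw [← hgl, QuotientGroup.mk_mul, QuotientGroup.mk_mul, QuotientGroup.mk_inv]
  · rw [pow_one, ← QuotientGroup.mk_mul, ← QuotientGroup.mk_pow, QuotientGroup.eq_one_iff]
    have hX : (u * l) ^ p = -1 := by
      apply Subtype.ext
      have hsq : (-(u.1 * l.1) - 1) * (-(u.1 * l.1) - 1) = 0 := by
        simp only [hu, hl]
        ext i j
        fin_cases i <;> fin_cases j <;>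
          simp [Matrix.mul_apply, Fin.sum_univ_two, Matrix.one_apply] <;> field_simp <;> ring
      have h0 : (-(u.1 * l.1) - 1) ^ p ^ 1 = 0 := by
        rw [pow_one, ← Nat.sub_add_cancel (Fact.out : p.Prime).two_le, pow_add, pow_two, hsq, mul_zero]
      rw [sub_one_pow (Fact.out : p.Prime) hpR, pow_one, hodd.neg_pow, sub_eq_zero] at h0
      show (u.1 * l.1) ^ p = -1
      rw [← h0, neg_neg]
    rw [hX]
    exact neg_one_mem_center
  · intro j hj
    rw [← QuotientGroup.mk_inv, ← QuotientGroup.mk_mul, ← QuotientGroup.mk_pow,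
      QuotientGroup.eq_one_iff] at hj
    have hli : (l⁻¹).1 = !![1, 0; 4 / t, 1] := by
      rw [Matrix.SpecialLinearGroup.coe_inv]
      simp [hl, adjugate_fin_two]
    have htr : (u * l⁻¹).1 0 0 + (u * l⁻¹).1 1 1 = 6 := by
      show (u.1 * (l⁻¹).1) 0 0 + (u.1 * (l⁻¹).1) 1 1 = 6
      rw [hu, hli]
      simp [Matrix.mul_apply, Fin.sum_univ_two]
      field_simp
      ring
    rcases center_sl_two hj with h | h
    · have h' : (u * l⁻¹).1 ^ p ^ j = 1 := congrArg Subtype.val h
      have := trace_two_of_pow h'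
      rw [htr] at this
      exact h2 (mul_self_eq_zero.mp (by linear_combination this))
    · have h' : (-(u * l⁻¹).1) ^ p ^ j = 1 := by
        rw [(hodd.pow).neg_pow, show (u * l⁻¹).1 ^ p ^ j = -1 from congrArg Subtype.val h, neg_neg]
      have := trace_two_of_pow h'
      rw [Matrix.neg_apply, Matrix.neg_apply] at this
      have h8 : (2 : F) * (2 * 2) = 0 := by linear_combination -this - htr
      exact h2 (by simpa [h2] using h8)

/-- Elements of order `p` of `PSL(2, F)` are obstructed. -/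
theorem obstructed_psl (hp : p ≠ 2) {y : ProjectiveSpecialLinearGroup (Fin 2) F} (hy : y ^ p = 1)
    (hne : y ≠ 1) : Obstructed p y := by
  have hodd : Odd p := (Fact.out : p.Prime).odd_of_ne_two hp
  obtain ⟨M, rfl⟩ := QuotientGroup.mk_surjective y
  rw [← QuotientGroup.mk_pow, QuotientGroup.eq_one_iff] at hy
  obtain ⟨N, hN, hMN⟩ : ∃ N : SpecialLinearGroup (Fin 2) F, N ^ p = 1 ∧
      (N : ProjectiveSpecialLinearGroup (Fin 2) F) = (M : ProjectiveSpecialLinearGroup (Fin 2) F) := by
    rcases center_sl_two hy with h | h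
    · exact ⟨M, h, rfl⟩
    · refine ⟨-M, by rw [hodd.neg_pow, h, neg_neg], ?_⟩
      rw [QuotientGroup.eq]
      have : (-M)⁻¹ * M = -1 := by rw [inv_mul_eq_iff_eq_mul]; simp
      rw [this]
      exact neg_one_mem_center
  rw [← hMN] at hne ⊢
  obtain ⟨c, t, hc⟩ := exists_conj_upper (M := N) (trace_two_of_pow (F := F) (M := N.1) (p := p) (j := 1)
    (by rw [pow_one, ← Matrix.SpecialLinearGroup.coe_pow, hN]; rfl))
  have ht : t ≠ 0 := fun h0 => hne (by
    have : c * N * c⁻¹ = 1 := Subtype.ext (by rw [hc, h0]; exact one_fin_two.symm)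
    rw [conj_eq_one_iff.mp this]; rfl)
  have := (obstructed_upper (p := p) hp ht hc).conj (c⁻¹ : ProjectiveSpecialLinearGroup (Fin 2) F)
  convert this using 1
  simp only [QuotientGroup.mk_mul, QuotientGroup.mk_inv]
  group

end CfsgLib.Quadratic44
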