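import Cfsg.Agent.SL2.Elements
import Cfsg.Agent.Quadratic44.Psl
import Cfsg.Agent.Zsigmondy.Main

/-!
An element of order dividing `q + 1` lies in the subgroup generated by a given element of order `p`
of `SL(2, q)` and a conjugate of it or of its inverse; the commutator space of an element of order
`p` of `SL(2, q)` on a faithful module.
-/

set_option autoImplicit false

open scoped commutatorElement Pointwise
open CfsgLib.SL2

namespace CfsgLib.Quadratic44

section SL2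

variable {F : Type*} [Field F]

theorem isConj_l_cases (s : F) (hs : s ≠ 0) {c x : F} (hx : x ≠ 0)
    (hc : c * s = x * x ∨ c * s = -(x * x)) :
    ∃ g : Matrix.SpecialLinearGroup (Fin 2) F, l c = g * u s * g⁻¹ ∨ l c = g * (u s)⁻¹ * g⁻¹ := by
  have hy : x / s ≠ 0 := div_ne_zero hx hs
  refine ⟨d (Units.mk0 _ hy)⁻¹ * w, ?_⟩
  have e : ∀ z : F, d (Units.mk0 _ hy)⁻¹ * w * u z * (d (Units.mk0 _ hy)⁻¹ * w)⁻¹ =
      l ((x / s) ^ 2 * -z) := fun z => by
    rw [show d (Units.mk0 _ hy)⁻¹ * w * u z * (d (Units.mk0 _ hy)⁻¹ * w)⁻¹ =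
      d (Units.mk0 _ hy)⁻¹ * (w * u z * w⁻¹) * (d (Units.mk0 _ hy)⁻¹)⁻¹ by group, w_conj_u,
      d_conj_l, inv_inv, Units.val_mk0]
  have hcs : ∀ e : F, c * s = e → c = e / s := fun e h => by rw [← h, mul_div_cancel_right₀ _ hs]
  rcases hc with hc | hc
  · right
    rw [← u_neg, e, neg_neg, hcs _ hc]
    congr 1
    field_simp
  · left
    rw [e, hcs _ hc]
    congr 1
    field_simp

/-- For `t` a nonsplit trace, `t - 2` or `-t - 2` is plus or minus a square. -/
theorem exists_sq_cases [Fintype F] {t : F} (ht : ¬ IsSplitTrace t) :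
    ∃ x : F, x ≠ 0 ∧
      ((t - 2 = x * x ∨ t - 2 = -(x * x)) ∨ (-t - 2 = x * x ∨ -t - 2 = -(x * x))) := by
  classical
  have h4 := sq_ne_four_of_not_isSplitTrace ht
  have hm : t - 2 ≠ 0 := fun h => h4 (by linear_combination (t + 2) * h)
  have hp : -t - 2 ≠ 0 := fun h => h4 (by linear_combination (2 - t) * h)
  by_cases h1 : IsSquare (t - 2)
  · obtain ⟨x, hx⟩ := h1
    exact ⟨x, fun h0 => hm (by simp [hx, h0]), Or.inl (Or.inl hx)⟩
  by_cases h2 : IsSquare (-(t - 2))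
  · obtain ⟨x, hx⟩ := h2
    exact ⟨x, fun h0 => hm (neg_eq_zero.mp (by simp [hx, h0])), Or.inl (Or.inr (by rw [← hx, neg_neg]))⟩
  have hF2 : ringChar F ≠ 2 := fun hF => h1 (FiniteField.isSquare_of_char_two hF _)
  have htwo : (2 : F) ≠ 0 := Ring.two_ne_zero hF2
  have hD : ¬ IsSquare (t * t - 4) := by
    rintro ⟨e, he⟩
    refine ht (isSplitTrace_iff_root.2 ⟨(t + e) / 2, ?_⟩)
    field_simp
    linear_combination -he
  have q1 := quadraticChar_neg_one_iff_not_isSquare.mpr h1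
  have q2 := quadraticChar_neg_one_iff_not_isSquare.mpr h2
  have q3 := quadraticChar_neg_one_iff_not_isSquare.mpr hD
  rw [neg_eq_neg_one_mul, map_mul, q1] at q2
  have e : t * t - 4 = (-1 : F) * (t - 2) * (-t - 2) := by ring
  rw [e, map_mul, map_mul, q1] at q3
  have q4 : quadraticChar F (-t - 2) = 1 := by linear_combination -q3 + (quadraticChar F (-t - 2)) * q2
  obtain ⟨x, hx⟩ := (quadraticChar_one_iff_isSquare hp).mp q4
  exact ⟨x, fun h0 => hp (by simp [hx, h0]), Or.inr (Or.inl hx)⟩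

variable {p : ℕ} [hp : Fact p.Prime] [CharP F p] [Fintype F]

theorem exists_conj_orderOf {a : Matrix.SpecialLinearGroup (Fin 2) F} {k : ℕ} (ha : a ^ p ^ k = 1)
    (hne : a ≠ 1) {e : ℕ} (hodd : Odd e) (he : e ∣ Fintype.card F + 1)
    (hnd : ¬ e ∣ Fintype.card F - 1) (hep : ¬ e ∣ 2 * p) :
    ∃ g b z, (b = g * a * g⁻¹ ∨ b = g * a⁻¹ * g⁻¹) ∧
      z ∈ Subgroup.closure ({a, b} : Set (Matrix.SpecialLinearGroup (Fin 2) F)) ∧ orderOf z = e := by
  obtain ⟨g₀, -, hcyc, hcard⟩ := exists_card_centralizer_eq_add_one (F := F)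
  obtain ⟨y₀, hy₀⟩ := IsCyclic.exists_generator (α := Subgroup.centralizer ({g₀} : Set (Matrix.SpecialLinearGroup (Fin 2) F)))
  have ho₀ : orderOf (y₀ : Matrix.SpecialLinearGroup (Fin 2) F) = Fintype.card F + 1 := by
    rw [Subgroup.orderOf_coe, orderOf_eq_card_of_forall_mem_zpowers hy₀, hcard]
  obtain ⟨y, hy⟩ : ∃ y : Matrix.SpecialLinearGroup (Fin 2) F, orderOf y = e :=
    ⟨(y₀ : Matrix.SpecialLinearGroup (Fin 2) F) ^ (orderOf (y₀ : Matrix.SpecialLinearGroup (Fin 2) F) / e),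
      orderOf_pow_orderOf_div (orderOf_pos _).ne' (ho₀ ▸ he)⟩
  have h4 : tr y ^ 2 ≠ 4 := fun h =>
    hep (hy ▸ orderOf_dvd_of_pow_eq_one (pow_two_mul_char_eq_one (p := p) h))
  have hns : ¬ IsSplitTrace (tr y) := fun h => hnd (hy ▸ orderOf_dvd_split h4 h)
  have htr : tr a = 2 := trace_two_of_pow (F := F) (M := a.1) (p := p) (j := k)
    (by rw [← Matrix.SpecialLinearGroup.coe_pow, ha]; rfl)
  obtain ⟨s, hs, hc⟩ := exists_isConj_u hne htr
  obtain ⟨c₀, hc₀⟩ := isConj_iff.1 hc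
  obtain ⟨x, hx, hcases⟩ := exists_sq_cases hns
  -- the trace of the product
  obtain ⟨y', hy', hy'2, hsq⟩ : ∃ y' : Matrix.SpecialLinearGroup (Fin 2) F, tr y' ^ 2 ≠ 4 ∧
      orderOf (y' ^ 2) = e ∧ ((tr y' - 2 = x * x) ∨ (tr y' - 2 = -(x * x))) := by
    have hsqo : orderOf (y ^ 2) = e := by
      rw [Nat.Coprime.orderOf_pow (hy ▸ Nat.coprime_two_right.mpr hodd), hy]
    rcases hcases with h | h
    · exact ⟨y, h4, hsqo, h⟩
    · exact ⟨-y, by rw [tr_neg, neg_sq]; exact h4, by rw [neg_sq]; exact hsqo, by rw [tr_neg]; exact h⟩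
  have hcs : (tr y' - 2) / s * s = tr y' - 2 := div_mul_cancel₀ _ hs
  obtain ⟨g, hg⟩ := isConj_l_cases s hs (c := (tr y' - 2) / s) hx (hcs.symm ▸ hsq)
  set b' := l ((tr y' - 2) / s) with hb'
  have htp : tr (u s * b') = tr y' := by
    rw [tr, Matrix.SpecialLinearGroup.coe_mul, hb', coe_u, coe_l]
    simp [Matrix.mul_apply, Fin.sum_univ_two]
    field_simp
    ring
  have hconj := isConj_of_tr_eq (g := u s * b') (h := y') (by rw [htp]; exact hy') htp
  refine ⟨c₀⁻¹ * g * c₀, c₀⁻¹ * b' * c₀, (c₀⁻¹ * (u s * b') * c₀) ^ 2, ?_, ?_, ?_⟩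
  · rcases hg with h | h
    · left; rw [h, ← hc₀]; group
    · right; rw [h, ← hc₀]; group
  · refine pow_mem ?_ 2
    rw [show c₀⁻¹ * (u s * b') * c₀ = a * (c₀⁻¹ * b' * c₀) by rw [← hc₀]; group]
    exact mul_mem (Subgroup.subset_closure (by simp)) (Subgroup.subset_closure (by simp))
  · obtain ⟨c₁, hc₁⟩ := isConj_iff.1 hconj
    rw [← hy'2, ← hc₁, conj_pow_eq]
    have := conj_pow_eq c₀⁻¹ (u s * b') 2
    rw [inv_inv] at this
    rw [this, orderOf_eq_orderOf_iff]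
    intro n
    rw [conj_pow_eq, conj_eq_one_iff]
    have := conj_pow_eq c₀⁻¹ ((u s * b') ^ 2) n
    rw [inv_inv] at this
    rw [this]
    constructor
    · intro h
      calc ((u s * b') ^ 2) ^ n = c₀ * (c₀⁻¹ * ((u s * b') ^ 2) ^ n * c₀) * c₀⁻¹ := by group
        _ = 1 := by rw [h]; group
    · intro h; rw [h]; group

end SL2

section Commutators

variable {G : Type*} [Group G]

/-- The image of `v ↦ v a v⁻¹ a⁻¹` on `V`. -/
theorem exists_commutator_image (V : Subgroup G) (hab : IsMulCommutative V) {a : G}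
    (ha : a ∈ Subgroup.normalizer (V : Set G)) :
    ∃ D : Subgroup G, D ≤ V ∧ (∀ v ∈ V, a * v * a⁻¹ * v⁻¹ ∈ D) ∧
      Nat.card D = (V ⊓ Subgroup.centralizer ({a} : Set G)).relIndex V := by
  letI : CommGroup V := { (inferInstance : Group V) with mul_comm := hab.is_comm.comm }
  have hmem : ∀ v : V, a * (v : G) * a⁻¹ * (v : G)⁻¹ ∈ V := fun v =>
    mul_mem ((Subgroup.mem_normalizer_iff.mp ha v).mp v.2) (inv_mem v.2)
  let f : V →* V := MonoidHom.mk' (fun v => ⟨_, hmem v⟩) (fun v w => Subtype.ext (by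
    have hw : a * (w : G) * a⁻¹ * (w : G)⁻¹ * (v : G)⁻¹ = (v : G)⁻¹ * (a * (w : G) * a⁻¹ * (w : G)⁻¹) :=
      congrArg Subtype.val (mul_comm (⟨_, hmem w⟩ : V) v⁻¹)
    show a * ((v : G) * w) * a⁻¹ * ((v : G) * w)⁻¹ = a * v * a⁻¹ * (v : G)⁻¹ * (a * w * a⁻¹ * (w : G)⁻¹)
    calc a * ((v : G) * w) * a⁻¹ * ((v : G) * w)⁻¹
        = a * v * a⁻¹ * (a * w * a⁻¹ * (w : G)⁻¹ * (v : G)⁻¹) := by group
      _ = _ := by rw [hw]; group))
  refine ⟨f.range.map V.subtype, Subgroup.map_subtype_le _, fun v hv => ⟨f ⟨v, hv⟩, ⟨_, rfl⟩, rfl⟩, ?_⟩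
  rw [Subgroup.card_map_of_injective V.subtype_injective]
  rw [← Nat.card_congr (QuotientGroup.quotientKerEquivRange f).toEquiv]
  have hker : f.ker = (V ⊓ Subgroup.centralizer ({a} : Set G)).subgroupOf V := by
    ext v
    rw [MonoidHom.mem_ker, Subgroup.mem_subgroupOf, Subgroup.mem_inf,
      Subgroup.mem_centralizer_singleton_iff, Subtype.ext_iff]
    show a * (v : G) * a⁻¹ * (v : G)⁻¹ = 1 ↔ _
    rw [mul_inv_eq_one, mul_inv_eq_iff_eq_mul]
    exact ⟨fun h => ⟨v.2, h.symm⟩, fun h => h.2.symm⟩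
  rw [hker]
  rfl

/-- An element of prime power order prime to `p` stabilizing `M ≤ V` with `V/M` centralized. -/
theorem le_exponent_of_commutator_le [Finite G] {p : ℕ} [Fact p.Prime] {V M : Subgroup G}
    (hV : Cfsg.IsElementaryAbelian p V) (hMV : M ≤ V) {z : G} {ℓ i : ℕ} (hℓ : ℓ.Prime) (hℓp : ℓ ≠ p)
    (hz : orderOf z = ℓ ^ (i + 1)) (hzN : z ∈ Subgroup.normalizer (V : Set G))
    (hzM : ∀ v ∈ V, z * v * z⁻¹ * v⁻¹ ∈ M)
    (hf : z ^ ℓ ^ i ∉ Subgroup.centralizer (V : Set G)) :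
    ∃ j k : ℕ, 0 < j ∧ Nat.card M = p ^ k ∧ j ≤ k ∧ ℓ ^ (i + 1) ∣ p ^ j - 1 := by
  classical
  set w := z ^ ℓ ^ i with hw
  -- the powers of `z` act on `M` and are trivial on `V` modulo `M`
  let S : Subgroup G :=
    { carrier := {g | g ∈ Subgroup.normalizer (V : Set G) ∧ ∀ v ∈ V, g * v * g⁻¹ * v⁻¹ ∈ M}
      one_mem' := ⟨one_mem _, fun v _ => by simp⟩
      mul_mem' := fun {g h} hg hh => ⟨mul_mem hg.1 hh.1, fun v hv => by
        have h1 := hg.2 _ ((Subgroup.mem_normalizer_iff.mp hh.1 v).mp hv)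
        rw [show g * h * v * (g * h)⁻¹ * v⁻¹ =
          g * (h * v * h⁻¹) * g⁻¹ * (h * v * h⁻¹)⁻¹ * (h * v * h⁻¹ * v⁻¹) by group]
        exact mul_mem h1 (hh.2 v hv)⟩
      inv_mem' := fun {g} hg => ⟨inv_mem hg.1, fun v hv => by
        have hx : g⁻¹ * v * g ∈ V := by
          have := (Subgroup.mem_normalizer_iff.mp (inv_mem hg.1) v).mp hv
          rwa [inv_inv] at this
        have h1 := inv_mem (hg.2 _ hx)
        rw [show (g * (g⁻¹ * v * g) * g⁻¹ * (g⁻¹ * v * g)⁻¹)⁻¹ = g⁻¹ * v * g⁻¹⁻¹ * v⁻¹ by group] at h1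
        exact h1⟩ }
  have hzS : z ∈ S := ⟨hzN, hzM⟩
  have hSM : ∀ g ∈ S, ∀ m ∈ M, g * m * g⁻¹ ∈ M := fun g hg m hm => by
    have := mul_mem (hg.2 m (hMV hm)) hm
    rwa [inv_mul_cancel_right] at this
  have hnorm : Subgroup.zpowers z ≤ Subgroup.normalizer (M : Set G) := by
    rw [Subgroup.zpowers_le, Subgroup.mem_normalizer_iff]
    intro m
    refine ⟨hSM z hzS m, fun h => ?_⟩
    have := hSM z⁻¹ (inv_mem hzS) _ h
    simpa [mul_assoc] using this
  -- `w` moves a point of `M`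
  have hwS : w ∈ S := pow_mem hzS _
  have hwo : w ^ ℓ = 1 := by rw [hw, ← pow_mul, ← pow_succ, ← hz, pow_orderOf_eq_one]
  have hmove : ∃ m ∈ M, w * m ≠ m * w := by
    by_contra hall
    push Not at hall
    refine hf (Subgroup.mem_centralizer_iff.mpr fun v hv => ?_)
    set x := w * v * w⁻¹ * v⁻¹ with hx
    have hxM : x ∈ M := hwS.2 v hv
    have hxw : w * x * w⁻¹ = x := mul_inv_eq_iff_eq_mul.mpr (hall x hxM)
    have hiter : ∀ j : ℕ, w ^ j * v * (w ^ j)⁻¹ = x ^ j * v := by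
      intro j
      induction j with
      | zero => simp
      | succ j ih =>
        calc w ^ (j + 1) * v * (w ^ (j + 1))⁻¹ = w * (w ^ j * v * (w ^ j)⁻¹) * w⁻¹ := by
              rw [pow_succ']; group
          _ = (w * x ^ j * w⁻¹) * (w * v * w⁻¹) := by rw [ih]; group
          _ = x ^ j * (x * v) := by rw [← conj_pow_eq, hxw, hx]; group
          _ = x ^ (j + 1) * v := by rw [pow_succ]; group
    have h1 : x ^ ℓ = 1 := by
      have := hiter ℓ
      rw [hwo, one_mul, inv_one, mul_one] at this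
      exact mul_eq_right.mp this.symm
    have h2 : x = 1 := by
      have := pow_gcd_eq_one.mpr ⟨h1, hV.2 x (hMV hxM)⟩
      rwa [(Nat.coprime_primes hℓ (Fact.out : p.Prime)).mpr hℓp, pow_one] at this
    rw [hx, mul_inv_eq_one, mul_inv_eq_iff_eq_mul] at h2
    exact h2.symm
  set Z := Subgroup.zpowers z
  set C := M ⊓ Subgroup.centralizer ({w} : Set G) with hC
  have hwZ : w ∈ Z := pow_mem (Subgroup.mem_zpowers z) _
  have hcomm : ∀ g ∈ Z, g * w = w * g := fun g hg => by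
    obtain ⟨j, rfl⟩ := Subgroup.mem_zpowers_iff.mp hg
    exact ((Commute.refl z).zpow_left j).pow_right _
  let X := {m : M // w * (m : G) ≠ (m : G) * w}
  letI : MulAction Z X :=
    { smul := fun g m => ⟨⟨g * (m.1 : G) * (g : G)⁻¹,
          (Subgroup.mem_normalizer_iff.mp (hnorm g.2) _).mp m.1.2⟩, fun h => m.2 (by
            have e1 := hcomm g g.2
            change w * (g * (m.1 : G) * (g : G)⁻¹) = g * (m.1 : G) * (g : G)⁻¹ * w at h
            calc w * (m.1 : G) = (g : G)⁻¹ * ((g : G) * w) * (m.1 : G) := by group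
              _ = (g : G)⁻¹ * (w * (g * (m.1 : G) * (g : G)⁻¹)) * g := by rw [e1]; group
              _ = (g : G)⁻¹ * (g * (m.1 : G) * (g : G)⁻¹ * w) * g := by rw [h]
              _ = (m.1 : G) * (g : G)⁻¹ * (w * g) := by group
              _ = (m.1 : G) * w := by rw [← e1]; group)⟩
      one_smul := fun m => Subtype.ext (Subtype.ext (by
        show ((1 : Z) : G) * (m.1 : G) * ((1 : Z) : G)⁻¹ = _
        simp))
      mul_smul := fun g h m => Subtype.ext (Subtype.ext (by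
        show ((g * h : Z) : G) * (m.1 : G) * ((g * h : Z) : G)⁻¹ =
          (g : G) * ((h : G) * (m.1 : G) * (h : G)⁻¹) * (g : G)⁻¹
        rw [Subgroup.coe_mul]; group)) }
  have hstab : ∀ m : X, MulAction.stabilizer Z m = ⊥ := fun m => by
    by_contra hne
    obtain ⟨g, hg, hg1⟩ := (Subgroup.bot_or_exists_ne_one _).resolve_left hne
    have hgm : (g : G) * (m.1 : G) * (g : G)⁻¹ = (m.1 : G) := congrArg (fun y : X => (y.1 : G)) hg
    have hgc : (g : G) ∈ Subgroup.centralizer ({(m.1 : G)} : Set G) :=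
      Subgroup.mem_centralizer_singleton_iff.mpr (mul_inv_eq_iff_eq_mul.mp hgm)
    obtain ⟨j, hj, hdz⟩ : ∃ j, orderOf (g : G) = ℓ ^ j ∧ 0 < j := by
      have hd : orderOf (g : G) ∣ ℓ ^ (i + 1) := hz ▸ orderOf_dvd_of_mem_zpowers g.2
      obtain ⟨j, -, hj⟩ := (Nat.dvd_prime_pow hℓ).mp hd
      refine ⟨j, hj, Nat.pos_of_ne_zero fun h0 => hg1 (Subtype.ext ?_)⟩
      rw [h0, pow_zero, orderOf_eq_one_iff] at hj
      exact hj
    have hle : Subgroup.zpowers w ≤ Subgroup.zpowers (g : G) := by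
      set g' := (g : G) ^ ℓ ^ (j - 1) with hg'
      have hg'o : orderOf g' = ℓ := by
        rw [hg', orderOf_pow' _ (pow_ne_zero _ hℓ.ne_zero), hj,
          Nat.gcd_eq_right (pow_dvd_pow ℓ (Nat.sub_le j 1)), Nat.pow_div (Nat.sub_le j 1) hℓ.pos,
          Nat.sub_sub_self hdz, pow_one]
      have hg'1 : g' ^ ℓ = 1 := by rw [← hg'o, pow_orderOf_eq_one]
      obtain ⟨n, -, hn⟩ : ∃ n, n < orderOf z ∧ z ^ n = g' := by
        have hmem : g' ∈ Subgroup.zpowers z := pow_mem g.2 _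
        rw [(isOfFinOrder_of_finite z).mem_zpowers_iff_mem_range_orderOf] at hmem
        simpa using hmem
      have hdiv : ℓ ^ i ∣ n := by
        have h' : ℓ ^ (i + 1) ∣ n * ℓ :=
          hz ▸ orderOf_dvd_of_pow_eq_one (by rw [pow_mul, hn, hg'1])
        rw [pow_succ] at h'
        exact Nat.dvd_of_mul_dvd_mul_right hℓ.pos h'
      obtain ⟨n', rfl⟩ := hdiv
      have hle' : Subgroup.zpowers g' ≤ Subgroup.zpowers w :=
        Subgroup.zpowers_le.mpr (by rw [← hn, pow_mul, ← hw]; exact pow_mem (Subgroup.mem_zpowers w) _)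
      have heq : Subgroup.zpowers g' = Subgroup.zpowers w :=
        Subgroup.eq_of_le_of_card_ge hle' (by
          rw [Nat.card_zpowers, Nat.card_zpowers, hg'o]
          exact Nat.le_of_dvd hℓ.pos (orderOf_dvd_of_pow_eq_one hwo))
      rw [← heq, Subgroup.zpowers_le]
      exact pow_mem (Subgroup.mem_zpowers _) _
    exact m.2 (Subgroup.mem_centralizer_singleton_iff.mp
      ((hle.trans (Subgroup.zpowers_le.mpr hgc)) (Subgroup.mem_zpowers w)))
  have hX : ℓ ^ (i + 1) ∣ Nat.card X := by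
    rw [Nat.card_congr (MulAction.selfEquivOrbitsQuotientProd hstab), Nat.card_prod, Nat.card_zpowers, hz]
    exact dvd_mul_left _ _
  have hVp : IsPGroup p V := fun v => ⟨1, Subtype.ext (by simpa using hV.2 _ v.2)⟩
  have hMp : IsPGroup p M := hVp.of_injective (Subgroup.inclusion hMV) (Subgroup.inclusion_injective hMV)
  obtain ⟨k, hk⟩ := IsPGroup.iff_card.mp hMp
  have hCp : IsPGroup p C :=
    hMp.of_injective (Subgroup.inclusion (inf_le_left : C ≤ M)) (Subgroup.inclusion_injective _)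
  obtain ⟨c, hc⟩ := IsPGroup.iff_card.mp hCp
  have hcount : Nat.card X + Nat.card C = Nat.card M := by
    have e : Nat.card {m : M // w * (m : G) = (m : G) * w} = Nat.card C :=
      Nat.card_congr
        { toFun := fun m => ⟨m.1, m.1.2, Subgroup.mem_centralizer_singleton_iff.mpr m.2.symm⟩
          invFun := fun m => ⟨⟨m, m.2.1⟩, (Subgroup.mem_centralizer_singleton_iff.mp m.2.2).symm⟩
          left_inv := fun m => rfl
          right_inv := fun m => rfl }
    rw [← e, ← Nat.card_sum]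
    exact Nat.card_congr ((Equiv.sumComm _ _).trans
      (Equiv.sumCompl fun m : M => w * (m : G) = (m : G) * w))
  have hXpos : 0 < Nat.card X := by
    obtain ⟨m, hm, hmne⟩ := hmove
    exact Nat.card_pos_iff.mpr ⟨⟨⟨⟨m, hm⟩, hmne⟩⟩, inferInstance⟩
  have hck : c < k := by
    by_contra hh
    have : p ^ k ≤ p ^ c := Nat.pow_le_pow_right (Fact.out : p.Prime).pos (by omega)
    omega
  refine ⟨k - c, k, by omega, hk, Nat.sub_le _ _, ?_⟩
  have e : p ^ k = p ^ c * p ^ (k - c) := by rw [← pow_add, Nat.add_sub_cancel' hck.le]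
  have h1 : ℓ ^ (i + 1) ∣ p ^ c * (p ^ (k - c) - 1) := by
    rw [Nat.mul_sub, mul_one, ← e]
    have : Nat.card X = p ^ k - p ^ c := by omega
    rwa [this] at hX
  exact (((Nat.coprime_primes hℓ (Fact.out : p.Prime)).mpr hℓp).pow _ _).dvd_of_dvd_mul_left h1

end Commutators

end CfsgLib.Quadratic44
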