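import Cfsg.Agent.Quadratic44.Basic
import Cfsg.Agent.Ree.Simple

/-!
Elements of order 3 of the Ree groups are obstructed.
-/

set_option autoImplicit false

open Cfsg.Lie CfsgLib.Chevalley CfsgLib.Ree

namespace CfsgLib.Quadratic44

/-- Powers of a word. -/
def wrep (w : List (ℕ × List Mon)) : ℕ → List (ℕ × List Mon)
  | 0 => []
  | n + 1 => w ++ wrep w n

/-- The inverse of a word. -/
def winv (w : List (ℕ × List Mon)) : List (ℕ × List Mon) :=
  w.reverse.map fun e => (e.1, pneg e.2)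

/-- The constant `1`. -/
def one3 : List Mon := [(1, 0, 0)]

/-- The constant `-1`. -/
def neg3 : List Mon := [(-1, 0, 0)]

/-- The element of type `B`. -/
def wB1 : List (ℕ × List Mon) := [(8, one3), (10, one3)]

/-- The element of type `C`. -/
def wC1 : List (ℕ × List Mon) := [(9, one3), (11, one3)]

theorem pairB_ab : eq3B (wrep (wB1 ++ [(3, neg3), (1, neg3)]) 3) [] = true := by decide +kernel

theorem pairB_ab' : eq3B (wrep (wB1 ++ [(3, one3), (1, one3)]) 2) [] = true := by decide +kernel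

theorem pairC_ab : eq3B (wrep (wC1 ++ [(2, one3), (0, one3)]) 5)
    (winv (wrep (wC1 ++ [(2, one3), (0, one3)]) 4)) = true := by decide +kernel

theorem pairC_ab' : eq3B (wrep (wC1 ++ [(2, neg3), (0, neg3)]) 4)
    (winv (wrep (wC1 ++ [(2, neg3), (0, neg3)]) 3)) = true := by decide +kernel

theorem eA_conj_B : eq3B (CfsgLib.Ree.wA ++ wB1) (wB1 ++ CfsgLib.Ree.wC ++ CfsgLib.Ree.wA) = true := by
  decide +kernel

variable {K : Type*} [Field K]

theorem ew_wrep (t u : K) (w : List (ℕ × List Mon)) (n : ℕ) : ew t u (wrep w n) = ew t u w ^ n := by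
  induction n with
  | zero => simp [wrep, ew_nil]
  | succ n ih => rw [wrep, ew_append, ih, pow_succ']

theorem ew_winv (t u : K) (w : List (ℕ × List Mon)) : ew t u (winv w) = (ew t u w)⁻¹ := by
  induction w with
  | nil => simp [winv, ew_nil]
  | cons e w ih =>
    rw [show winv (e :: w) = winv w ++ [(e.1, pneg e.2)] by simp [winv], ew_append, ih, ew_cons,
      ew_cons, ew_nil, mul_one, mul_inv_rev, pev_pneg]
    congr 1
    exact eq_inv_of_mul_eq_one_left (by rw [sysG2.xG_add, neg_add_cancel, sysG2.xG_zero])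

variable [CharP K 3]

omit [CharP K 3] in
theorem ew_two (r s : ℕ) (P R : List Mon) :
    ew (0 : K) 0 [(r, P), (s, R)] = sysG2.xG K r (pev K 0 0 P) * sysG2.xG K s (pev K 0 0 R) := by
  rw [ew_cons, ew_cons, ew_nil, mul_one]

omit [CharP K 3] in
theorem pev_one3 : pev K 0 0 one3 = 1 := by simp [pev, one3]

omit [CharP K 3] in
theorem pev_neg3 : pev K 0 0 neg3 = -1 := by simp [pev, neg3]

variable {m : ℕ}

theorem eB_one_eq : eB K m (1 : K) = ew (0 : K) 0 wB1 := by
  rw [eB_val, map_one, wB1, ew_two, pev_one3]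

theorem eC_one_eq : eC K m (1 : K) = ew (0 : K) 0 wC1 := by
  rw [eC_val, map_one, wC1, ew_two, pev_one3]

theorem n0_conj_two {r s r' s' : ℕ} (hr : r < chevG2.nroots) (hs : s < chevG2.nroots)
    (hr' : chevG2.negIdx.getD r 0 = r') (hs' : chevG2.negIdx.getD s 0 = s') (a b : K) :
    n0 K * (sysG2.xG K r a * sysG2.xG K s b) * n0 K = sysG2.xG K r' (-a) * sysG2.xG K s' (-b) := by
  rw [← hr', ← hs', ← n0_conj_xG hr, ← n0_conj_xG hs]
  simp only [mul_assoc]
  rw [← mul_assoc (n0 K) (n0 K), n0_mul_self, one_mul]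

theorem conjB : n0 K * eB K m (1 : K) * n0 K = ew (0 : K) 0 [(3, neg3), (1, neg3)] := by
  rw [eB_val, map_one, ew_two, pev_neg3,
    n0_conj_two (r' := 3) (s' := 1) (by decide) (by decide) (by decide +kernel) (by decide +kernel)]

theorem conjC : n0 K * eC K m (1 : K) * n0 K = ew (0 : K) 0 [(2, neg3), (0, neg3)] := by
  rw [eC_val, map_one, ew_two, pev_neg3,
    n0_conj_two (r' := 2) (s' := 0) (by decide) (by decide) (by decide +kernel) (by decide +kernel)]

theorem conjB' : n0 K * eB K m (-1 : K) * n0 K = ew (0 : K) 0 [(3, one3), (1, one3)] := by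
  rw [eB_val, map_neg, map_one, ew_two, pev_one3,
    n0_conj_two (r' := 3) (s' := 1) (by decide) (by decide) (by decide +kernel) (by decide +kernel),
    neg_neg]

theorem conjC' : n0 K * eC K m (-1 : K) * n0 K = ew (0 : K) 0 [(2, one3), (0, one3)] := by
  rw [eC_val, map_neg, map_one, ew_two, pev_one3,
    n0_conj_two (r' := 2) (s' := 0) (by decide) (by decide) (by decide +kernel) (by decide +kernel),
    neg_neg]

theorem eq_one_of_conj_pos {a : GL chevG2.Idx K} (ha : a ∈ chevG2.posUnipotent K)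
    (h : n0 K * a * n0 K ∈ chevG2.posUnipotent K) : a = 1 := by
  have h' : n0 K * a * n0 K ∈ chevG2.borelSubgroup K ⊓ chevG2.negUnipotent K :=
    Subgroup.mem_inf.mpr ⟨Subgroup.mem_sup_left h, n0_conj_neg ha⟩
  rw [sysG2.borel_inf_neg, Subgroup.mem_bot] at h'
  have := congrArg (fun g => n0 K * g * n0 K) h'
  simpa [mul_assoc, n0_mul_self, ← mul_assoc (n0 K) (n0 K)] using this

theorem pow_ne_one_of_coprime {G : Type*} [Group G] {x : G} {n : ℕ} (hn : x ^ n = 1) (hx : x ≠ 1)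
    (hc : Nat.Coprime n 3) (j : ℕ) : x ^ 3 ^ j ≠ 1 := fun h => hx (by
  have := pow_gcd_eq_one.mpr ⟨hn, h⟩
  rwa [Nat.Coprime.gcd_eq_one (hc.pow_right j), pow_one] at this)

local notation "G¹" => twistedG2 K (3 ^ m)

theorem obstructed_B : Obstructed 3 (⟨eB K m (1 : K), eB_twisted 1⟩ : ↥G¹) := by
  refine ⟨⟨n0 K, n0_mem_twisted⟩, 1, _, Or.inl rfl, Subtype.ext ?_,
    pow_ne_one_of_coprime (n := 2) (Subtype.ext ?_) (fun h => ?_) (by decide)⟩
  · show (eB K m (1 : K) * (n0 K * eB K m 1 * (n0 K)⁻¹)) ^ 3 ^ 1 = 1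
    rw [n0_inv, pow_one, conjB, eB_one_eq, ← ew_append, ← ew_wrep, eq3_sound pairB_ab, ew_nil]
  · show (eB K m (1 : K) * (n0 K * eB K m 1 * (n0 K)⁻¹)⁻¹) ^ 2 = 1
    rw [show (n0 K * eB K m 1 * (n0 K)⁻¹)⁻¹ = n0 K * (eB K m 1)⁻¹ * n0 K by
      rw [mul_inv_rev, mul_inv_rev, inv_inv, n0_inv, mul_assoc], eB_inv, conjB', eB_one_eq,
      ← ew_append, ← ew_wrep, eq3_sound pairB_ab', ew_nil]
  · have h1 : eB K m (1 : K) * (n0 K * eB K m 1 * (n0 K)⁻¹)⁻¹ = 1 := congrArg Subtype.val h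
    rw [mul_inv_eq_one, n0_inv] at h1
    have he : eB K m (1 : K) = 1 := eq_one_of_conj_pos (eB_pos _) (h1 ▸ eB_pos _)
    have := eU_inj (t := (0 : K)) (u := 1) (v := 0) (t' := 0) (u' := 0) (v' := 0)
      (show eU K m (0 : K) 1 0 = eU K m 0 0 0 by
        simp [eU, he, eA_val, eB_val, eC_val, sysG2.xG_zero])
    exact one_ne_zero this.2.1

theorem obstructed_C : Obstructed 3 (⟨eC K m (1 : K), eC_twisted 1⟩ : ↥G¹) := by
  refine ⟨⟨n0 K, n0_mem_twisted⟩, 2, _, Or.inr rfl, Subtype.ext ?_,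
    pow_ne_one_of_coprime (n := 7) (Subtype.ext ?_) (fun h => ?_) (by decide)⟩
  · show (eC K m (1 : K) * (n0 K * (eC K m 1)⁻¹ * (n0 K)⁻¹)) ^ 9 = 1
    rw [n0_inv, eC_inv, conjC', eC_one_eq, ← ew_append, show (9 : ℕ) = 4 + 5 from rfl, pow_add,
      ← ew_wrep, ← ew_wrep, eq3_sound pairC_ab, ew_winv, mul_inv_cancel]
  · show (eC K m (1 : K) * (n0 K * (eC K m 1)⁻¹ * (n0 K)⁻¹)⁻¹) ^ 7 = 1
    rw [show (n0 K * (eC K m 1)⁻¹ * (n0 K)⁻¹)⁻¹ = n0 K * eC K m 1 * n0 K by
      rw [mul_inv_rev, mul_inv_rev, inv_inv, inv_inv, n0_inv, mul_assoc], conjC, eC_one_eq,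
      ← ew_append, show (7 : ℕ) = 3 + 4 from rfl, pow_add, ← ew_wrep, ← ew_wrep, eq3_sound pairC_ab',
      ew_winv, mul_inv_cancel]
  · have h1 : eC K m (1 : K) * (n0 K * (eC K m 1)⁻¹ * (n0 K)⁻¹)⁻¹ = 1 := congrArg Subtype.val h
    rw [mul_inv_eq_one, n0_inv] at h1
    have he : (eC K m (1 : K))⁻¹ = 1 :=
      eq_one_of_conj_pos (inv_mem (eC_pos _)) (h1 ▸ eC_pos _)
    rw [inv_eq_one] at he
    have := eU_inj (t := (0 : K)) (u := 0) (v := 1) (t' := 0) (u' := 0) (v' := 0)
      (show eU K m (0 : K) 0 1 = eU K m 0 0 0 by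
        simp [eU, he, eA_val, eB_val, eC_val, sysG2.xG_zero])
    exact one_ne_zero this.2.2

theorem eA_conj_eB_one (t : K) :
    eA K m t * eB K m 1 * (eA K m t)⁻¹ = eB K m 1 * eC K m t := by
  have h := eq3_sound (F := K) eA_conj_B (th K m t) t
  have hB : ew (th K m t) t wB1 = eB K m (1 : K) := by
    rw [wB1, eB_val, map_one, ew_cons, ew_cons, ew_nil, mul_one]
    simp [pev, one3]
  rw [ew_append, ew_append, ew_append, hB] at h
  rw [mul_inv_eq_iff_eq_mul]
  exact h

variable [Fintype K]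

theorem obstructed_eB_eC (hK : Fintype.card K = 3 ^ (2 * m + 1)) (u v : K) (h : u ≠ 0 ∨ v ≠ 0) :
    Obstructed 3 (⟨eB K m u * eC K m v, mul_mem (eB_twisted u) (eC_twisted v)⟩ : ↥G¹) := by
  have hq := Q_of_card hK
  by_cases hu : u = 0
  · have hv : v ≠ 0 := by simpa [hu] using h
    have hw : th K m v ≠ 0 := fun h0 => hv (by rw [← fr_th hq v, h0, map_zero])
    have := (obstructed_C (K := K) (m := m)).conj
      ⟨hT K m (Units.mk0 _ hw), hT_mem_twisted hK _⟩
    convert this using 1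
    refine Subtype.ext ?_
    show eB K m u * eC K m v = hT K m _ * eC K m 1 * (hT K m _)⁻¹
    rw [hT_conj_eC hq, Units.val_mk0, fr_th hq, mul_one, hu]
    simp [eB_val, sysG2.xG_zero]
  · have key : ∀ z : K, z ≠ 0 → ∀ v, Obstructed 3
        (⟨eB K m (z ^ 2) * eC K m v, mul_mem (eB_twisted _) (eC_twisted _)⟩ : ↥G¹) := by
      intro z hz v
      set x := th K m (th K m z) with hx
      have hx3 : x ^ 3 = z := by
        have h1 := fr_fr hq x
        rw [hx, fr_th hq, fr_th hq] at h1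
        exact h1.symm
      have hx0 : x ≠ 0 := fun h0 => hz (by rw [← hx3, h0, zero_pow (by norm_num)])
      have hw : x ^ 3 * fr K m x ≠ 0 := mul_ne_zero (pow_ne_zero _ hx0) ((map_ne_zero _).mpr hx0)
      set w := Units.mk0 _ hw with hwd
      have hψ : (w : K) ^ 3 / fr K m w = z ^ 2 := by
        have hfx : fr K m x ≠ 0 := (map_ne_zero _).mpr hx0
        rw [hwd, Units.val_mk0, map_mul, map_pow, fr_fr hq, ← hx3]
        field_simp
      have hfw : fr K m (w : K) ≠ 0 := (map_ne_zero _).mpr w.ne_zero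
      set s : K := v / fr K m (w : K)
      have h0 := (obstructed_B (K := K) (m := m)).conj
        ⟨hT K m w * eA K m s, mul_mem (hT_mem_twisted hK _) (eA_twisted _)⟩
      convert h0 using 1
      refine Subtype.ext ?_
      show eB K m (z ^ 2) * eC K m v =
        hT K m w * eA K m s * eB K m 1 * (hT K m w * eA K m s)⁻¹
      rw [show hT K m w * eA K m s * eB K m 1 * (hT K m w * eA K m s)⁻¹ =
        hT K m w * (eA K m s * eB K m 1 * (eA K m s)⁻¹) * (hT K m w)⁻¹ by group, eA_conj_eB_one,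
        show hT K m w * (eB K m 1 * eC K m s) * (hT K m w)⁻¹ =
          (hT K m w * eB K m 1 * (hT K m w)⁻¹) * (hT K m w * eC K m s * (hT K m w)⁻¹) by group,
        hT_conj_eB hq, hT_conj_eC hq, hψ, mul_one, mul_div_cancel₀ _ hfw]
    by_cases hsq : IsSquare u
    · obtain ⟨z, hz⟩ := hsq
      have := key z (fun h0 => hu (by simp [hz, h0])) v
      convert this using 3
      rw [hz, sq]
    · obtain ⟨z, hz⟩ : IsSquare (-u) := by
        classical
        have hu' : -u ≠ 0 := neg_ne_zero.mpr hu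
        rw [← quadraticChar_one_iff_isSquare hu', neg_eq_neg_one_mul, map_mul,
          quadraticChar_neg_one_iff_not_isSquare.mpr hsq,
          quadraticChar_neg_one_iff_not_isSquare.mpr (not_isSquare_neg_one hK)]
        norm_num
      have h' := (key z (fun h0 => hu (by simpa [h0] using hz)) (-v)).inv
      have hc : Commute (eC K m (-v)) (eB K m (-u)) := by
        show eC K m (-v) * eB K m (-u) = eB K m (-u) * eC K m (-v)
        rw [eC_val]
        exact commute_x9x11 _ _ (eB_pos _)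
      convert h' using 1
      refine Subtype.ext ?_
      show eB K m u * eC K m v = (eB K m (z ^ 2) * eC K m (-v))⁻¹
      rw [sq, ← hz, ← hc.eq, mul_inv_rev, eB_inv, eC_inv, neg_neg, neg_neg]

/-- Elements of order 3 of the Ree groups are obstructed. -/
theorem obstructed_ree (hK : Fintype.card K = 3 ^ (2 * m + 1)) {y : ↥G¹} (hy : y ^ 3 = 1) (hne : y ≠ 1) :
    Obstructed 3 y := by
  haveI : Fact (Nat.Prime 3) := ⟨Nat.prime_three⟩
  have hq := Q_of_card hK
  obtain ⟨S, hS⟩ := exists_uSylow (K := K) (m := m) hK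
  have hp : IsPGroup 3 (Subgroup.zpowers y) := by
    refine IsPGroup.of_card (n := 1) ?_
    rw [Nat.card_zpowers, pow_one, orderOf_eq_prime hy hne]
  obtain ⟨T, hT⟩ := hp.exists_le_sylow
  obtain ⟨g, hg⟩ := MulAction.exists_smul_eq ↥G¹ S T
  have hyT := hT (Subgroup.mem_zpowers y)
  rw [← hg, Sylow.coe_subgroup_smul, Subgroup.mem_pointwise_smul_iff_inv_smul_mem, hS] at hyT
  simp only [MulAut.smul_def, MulAut.inv_apply, MulAut.conj_symm_apply] at hyT
  have hy' : (g⁻¹ * y * g) ^ 3 = 1 := by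
    have := conj_pow_eq g⁻¹ y 3
    rw [inv_inv, hy, mul_one, inv_mul_cancel] at this
    exact this
  have hne' : g⁻¹ * y * g ≠ 1 := fun h0 => hne (by
    calc y = g * (g⁻¹ * y * g) * g⁻¹ := by group
      _ = 1 := by rw [h0]; group)
  obtain ⟨t, u, v, he⟩ := (mem_fixU_iff hq).1 (Subgroup.mem_inf.mpr
    ⟨hyT, (twistedG2_le_fixSub hq) (g⁻¹ * y * g).2⟩)
  have ht : t = 0 := (eU_pow_three_iff t u v).1 (by
    rw [← he]; exact congrArg Subtype.val hy')
  subst ht
  have hval : eU K m (0 : K) u v = eB K m u * eC K m v := by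
    simp [eU, eA_val, sysG2.xG_zero]
  rw [hval] at he
  have huv : u ≠ 0 ∨ v ≠ 0 := by
    by_contra hh
    rw [not_or, not_not, not_not] at hh
    exact hne' (Subtype.ext (he.trans (by rw [hh.1, hh.2]; simp [eB_val, eC_val, sysG2.xG_zero])))
  have hob := (obstructed_eB_eC hK u v huv).conj g
  have e : (⟨eB K m u * eC K m v, mul_mem (eB_twisted u) (eC_twisted v)⟩ : ↥G¹) = g⁻¹ * y * g :=
    Subtype.ext he.symm
  rw [e] at hob
  convert hob using 1
  group

end CfsgLib.Quadratic44
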